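import Mathlib

/-! Averaging of a cocycle over the cosets of a subgroup of coprime index. -/

set_option autoImplicit false

namespace Cfsg.Agent.H92

open Subgroup
open scoped IsMulCommutative

/-- Two homomorphisms congruent modulo an abelian normal subgroup `A` and equal on a subgroup of
index prime to `|A|` are conjugate under `A`. -/
theorem exists_conj_of_agree {G G' : Type*} [Group G] [Group G'] (A : Subgroup G') [hA : A.Normal]
    [IsMulCommutative A] (T : Subgroup G) [T.FiniteIndex] (hc : (Nat.card A).Coprime T.index)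
    (φ ψ : G →* G') (h : ∀ g, ψ g * (φ g)⁻¹ ∈ A) (hT : ∀ s ∈ T, ψ s = φ s) :
    ∃ a ∈ A, ∀ g, ψ g = a * φ g * a⁻¹ := by
  classical
  have := Fintype.ofFinite (G ⧸ T)
  let d : G ⧸ T → A := fun t => Quotient.liftOn' t (fun g => ⟨ψ g * (φ g)⁻¹, h g⟩) fun g g' e => by
    have := hT _ (QuotientGroup.leftRel_apply.1 e)
    rw [map_mul, map_mul, map_inv, map_inv] at this
    apply Subtype.ext
    show ψ g * (φ g)⁻¹ = ψ g' * (φ g')⁻¹
    calc _ = ψ g * ((φ g)⁻¹ * φ g') * (φ g')⁻¹ := by group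
      _ = _ := by rw [← this]; group
  have hd : ∀ (g : G) (t : G ⧸ T), d (g • t) = d g * MulAut.conjNormal (φ g) (d t) := fun g t => by
    obtain ⟨x, rfl⟩ := QuotientGroup.mk_surjective t
    apply Subtype.ext
    show ψ (g * x) * (φ (g * x))⁻¹ = ψ g * (φ g)⁻¹ * (φ g * (ψ x * (φ x)⁻¹) * (φ g)⁻¹)
    rw [map_mul, map_mul]; group
  obtain ⟨a, ha⟩ := (powCoprime hc).surjective (∏ t, d t)
  refine ⟨a, a.2, fun g => ?_⟩
  have h1 : ∏ t, d t = d g ^ T.index * MulAut.conjNormal (φ g) (∏ t, d t) := by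
    conv_lhs => rw [← Equiv.prod_comp (MulAction.toPerm g) d]
    simp only [MulAction.toPerm_apply, hd, Finset.prod_mul_distrib, Finset.prod_const]
    rw [index, Nat.card_eq_fintype_card, Finset.card_univ, map_prod]
  have h2 : a = d g * MulAut.conjNormal (φ g) a := (powCoprime hc).injective (by
    rw [ha, h1, ← ha]
    simp [mul_pow])
  have h3 : (a : G') = ψ g * (φ g)⁻¹ * (φ g * a * (φ g)⁻¹) := congrArg Subtype.val h2
  calc ψ g = ψ g * (φ g)⁻¹ * (φ g * a * (φ g)⁻¹) * φ g * (a : G')⁻¹ := by group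
    _ = _ := by rw [← h3]

end Cfsg.Agent.H92
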